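import Cfsg.Agent.H755.PQ.TorDualP

/-!
# S4612: tori, pairs of different orders in `²E₆(q)` (helper755)

* `pairs_2E6` : `Kill` for `(10, 2), (8, 2), (4, 2), (3, 6), (12, 6)`; `two_2E6` : `KillTwo` for `4, 8, 10`.
-/

set_option autoImplicit false
set_option linter.unusedSectionVars false
set_option linter.unusedVariables false

namespace Cfsg.Agent.H755.PQ

open CoxeterSystem Cfsg Cfsg.Lie Cfsg.Lie.ChevalleyDatum
open Cfsg.Agent.ChevalleyStructure Cfsg.Agent.ChevalleyStructure.Elts Cfsg.Agent.ChevalleyStructure.CoxeterGeom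
  Cfsg.Agent.ChevalleyStructure.CoxeterGeomTypes Cfsg.Agent.ChevalleyStructure.NPerm
open Cfsg.Agent.Tits.Roots Cfsg.Agent.Tits.Core Cfsg.Agent.Nodes Cfsg.Agent.Nodes.Reps Cfsg.Agent.Nodes.BNOf
  Cfsg.Agent.Nodes.RGDChev Cfsg.Agent.Nodes.Bruhat Cfsg.Agent.Nodes.SubComb Cfsg.Agent.Nodes.Coroot
open Cfsg.Agent.KFacts.RgdField Cfsg.Agent.KFacts.RgdChevCoord Cfsg.Agent.BpExc.TorCent Cfsg.Agent.BpExc.TorChev
open Cfsg.Agent.GpExc.Field Cfsg.Agent.BpExc.Tow Cfsg.Agent.BpExc.TowChev Cfsg.Agent.BpExc.Fr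
  Cfsg.Agent.BpExc.LangFr Cfsg.Agent.LangThm Cfsg.Agent.BpExc Cfsg.Agent.H129.TorusChar Cfsg.Agent.H129.TorusMain
open Cfsg.Agent.H129.TwE6Fr (tau isFrob_tau fr_tau embT embT_injective tau_embT tau_split tau_normal tau_pow flip6
  flip6_apply flip_sr')
open Cfsg.Agent.H630.NH Cfsg.Agent.H630.Exc Cfsg.Agent.H317.PQ Cfsg.Agent.H990.PQ
open Cfsg.Agent.H130.WeylCk Cfsg.Agent.H130.PolyL Cfsg.Agent.H130.WeylTab

universe u v

/-- **Type `²E₆`.** -/
theorem deadZ_2E6 (F : Type u) [Field F] [Fintype F] {q : ℕ} (hq : IsPrimePow q) (hF : Fintype.card F = q ^ 2)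
    {n : ℕ} (hn : 1 < n ∧ n ∈ H130.PolyL.idx) {m : ℕ} (hm : 0 < m ∧ m ∈ H130.PolyL.idx)
    (H : HasD alE6 6 [2, 5, 6, 8, 9, 12] n m) : DeadZ [2, 5, 6, 8, 9, 12] 3 ↥(twistedE6 F q) (-(q : ℤ)) n m := by
  obtain ⟨k, _, _, f, r, hpp, hkp, e', hk, hka, he0', hcF⟩ := H378.TorFin.exists_closure F
  obtain ⟨e, he0, hqe⟩ : ∃ e, 0 < e ∧ q = r ^ e := by
    obtain ⟨r', e, hr', he, rfl⟩ := hq
    have h1 : r' ∣ r ^ e' := by
      rw [← hcF, Nat.card_eq_fintype_card, hF]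
      exact (dvd_pow_self r' he.ne').trans (dvd_pow_self _ two_ne_zero)
    have h2 : r' = r := (Nat.prime_dvd_prime_iff_eq hr'.nat_prime hpp.out).1 (hr'.nat_prime.dvd_of_dvd_pow h1)
    exact ⟨e, he, by rw [h2]⟩
  have cs := CoxeterMatrix.E₆.toCoxeterSystem
  have hW := finite_W e6T cs
  have S := setup_twE6 cs hk f he0 hqe hq hF
  have h1 : (-1 : ℤ) = 1 ∨ (-1 : ℤ) = -1 := Or.inr rfl
  have hQ : (-(q : ℤ)) = -1 * (r ^ e : ℕ) := by rw [hqe]; ring
  have hpos : 0 < q := hq.pos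
  have hcard : Nat.gcd 3 (q + 1) * Nat.card ↥(twistedE6 F q) = (r ^ e) ^ 36 *
      (([2, 5, 6, 8, 9, 12].map (fun i => (-(q : ℤ)) ^ i - 1)).prod).natAbs := by
    rw [S1066.result hq hF, ← hqe]
    have ev : ∀ i : ℕ, Even i → ((-(q : ℤ)) ^ i - 1).natAbs = q ^ i - 1 := by
      intro i hi
      rw [hi.neg_pow]
      have h1 : 1 ≤ q ^ i := Nat.one_le_pow _ _ hpos
      have h2 : ((q : ℕ) : ℤ) ^ i - 1 = ((q ^ i - 1 : ℕ) : ℤ) := by push_cast [Nat.cast_sub h1]; ring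
      rw [h2, Int.natAbs_natCast]
    have od : ∀ i : ℕ, Odd i → ((-(q : ℤ)) ^ i - 1).natAbs = q ^ i + 1 := by
      intro i hi
      rw [hi.neg_pow]
      have h2 : -((q : ℕ) : ℤ) ^ i - 1 = -((q ^ i + 1 : ℕ) : ℤ) := by push_cast; ring
      rw [h2, Int.natAbs_neg, Int.natAbs_natCast]
    simp only [List.map_cons, List.map_nil, List.prod_cons, List.prod_nil, mul_one, Int.natAbs_mul]
    rw [ev 2 (by decide), od 5 (by decide), ev 6 (by decide), ev 8 (by decide), od 9 (by decide), ev 12 (by decide)]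
    ring
  refine deadZ_of_setup e6T cs S h1 lists_E6 (hasTor_tw cs) hQ hcard (fun s hs h => ?_) hn hm H
  refine ⟨h.trans (Nat.gcd_dvd_left _ _), ?_⟩
  have e1 : -(q : ℤ) - 1 = -((q + 1 : ℕ) : ℤ) := by push_cast; ring
  rw [e1, dvd_neg]
  exact_mod_cast h.trans (Nat.gcd_dvd_right _ _)

/-- the order of `-q` -/
theorem ord_neg_four' {q r e : ℕ} (hr : r.Prime) (hr2 : r ≠ 2) (he : 4 ∣ e) (h : ord q r = e) :
    orderOf ((-(q : ℤ) : ℤ) : ZMod r) = e := by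
  have h1 : ((-(q : ℤ) : ℤ) : ZMod r) = -(q : ZMod r) := by push_cast; rfl
  have h2 : orderOf (q : ZMod r) = e := h
  rw [h1, ord_neg_four hr hr2 (by rw [h2]; exact he), h2]

theorem ord_neg_two' {q r m : ℕ} (hr : r.Prime) (hr2 : r ≠ 2) (hm : Odd m) (h : ord q r = 2 * m) :
    orderOf ((-(q : ℤ) : ℤ) : ZMod r) = m := by
  have h1 : ((-(q : ℤ) : ℤ) : ZMod r) = -(q : ZMod r) := by push_cast; rfl
  rw [h1, ord_neg_two hr hr2 hm h]

theorem ord_neg_odd' {q r e : ℕ} (hr : r.Prime) (hr2 : r ≠ 2) (he : Odd e) (h : ord q r = e) :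
    orderOf ((-(q : ℤ) : ℤ) : ZMod r) = 2 * e := by
  have h1 : ((-(q : ℤ) : ℤ) : ZMod r) = -(q : ZMod r) := by push_cast; rfl
  have h2 : orderOf (q : ZMod r) = e := h
  rw [h1, ord_neg_odd hr hr2 (by rw [h2]; exact he), h2]

/-- `Kill` for the unitary sign -/
theorem DeadZ.kill_neg {degs : List ℕ} {d : ℕ} {X : Type v} [Group X] {q n m e f : ℕ}
    (h : DeadZ degs d X (-(q : ℤ)) n m) (hn : 1 < n) (hm : 0 < m) (hb : NoBad degs n)
    (he : ∀ r : ℕ, r.Prime → r ≠ 2 → ord q r = e → orderOf ((-(q : ℤ) : ℤ) : ZMod r) = n)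
    (hf : ∀ r : ℕ, r.Prime → r ≠ 2 → ord q r = f → orderOf ((-(q : ℤ) : ℤ) : ZMod r) = m)
    (hd : m = 1 → ∀ s, s ∣ d → s.Prime → ord q s = f → ∀ r : ℕ, r.Prime → r ≠ 2 → r ≠ s → ord q r = e → ¬ Same r s X) :
    Kill X q e f := by
  intro r s hr hs hr2 hs2 hrs _ _ h1 h2
  have h1' := he r hr hr2 h1
  have h2' := hf s hs hs2 h2
  have hQr := not_dvd_of_orderOf (by omega) hr h1'
  have hQs := not_dvd_of_orderOf (by omega) hs h2'
  have hnr : n ∣ r - 1 := by rw [← h1']; exact H630.Exc.ord_dvd hr hQr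
  by_cases h3 : s ∣ d ∧ (s : ℤ) ∣ -(q : ℤ) - 1
  · have h4 := (dvd_pow_sub_one_iff (r := s) (Q := (-(q : ℤ))) 1).1 (by rw [pow_one]; exact h3.2)
    rw [h2'] at h4
    exact hd (Nat.dvd_one.1 h4) s h3.1 hs h2 r hr hr2 hrs h1
  · exact h r s hr hs hrs (hb.not_dvd hr hr2 hnr) h3 h1' (by rw [← h2']; exact dvd_cyclotomic hs hQs)

/-- `KillTwo` for the unitary sign -/
theorem DeadZ.killTwo_neg {degs : List ℕ} {d : ℕ} {X : Type v} [Group X] {q n m e : ℕ}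
    (h : DeadZ degs d X (-(q : ℤ)) n m) (hn : 1 < n) (hb : NoBad degs n) (hd : ¬ 2 ∣ d)
    (hq : (2 : ℤ) ∣ (Polynomial.cyclotomic m ℤ).eval (-(q : ℤ)))
    (he : ∀ r : ℕ, r.Prime → r ≠ 2 → ord q r = e → orderOf ((-(q : ℤ) : ℤ) : ZMod r) = n) : KillTwo X q e := by
  intro r hr hr2 _ h1 hS
  have h1' := he r hr hr2 h1
  have hQr := not_dvd_of_orderOf (by omega) hr h1'
  have hnr : n ∣ r - 1 := by rw [← h1']; exact H630.Exc.ord_dvd hr hQr
  exact h r 2 hr Nat.prime_two hr2 (hb.not_dvd hr hr2 hnr) (fun h3 => hd h3.1) h1' (by exact_mod_cast hq) hS.symm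

/-- `Kill` for `(3, 6)` and `(12, 6)` in `²E₆` -/
theorem pairs_2E6 (F : Type u) [Field F] [Fintype F] {q : ℕ} (hq : IsPrimePow q) (hF : Fintype.card F = q ^ 2) :
    ∀ x ∈ [(3, 6), (12, 6)], Kill ↥(twistedE6 F q) q x.1 x.2 := by
  intro x hx
  simp only [List.mem_cons, List.not_mem_nil, or_false] at hx
  rcases hx with rfl | rfl
  · exact (deadZ_2E6 F hq hF (by decide) (by decide) hasD_E6_6_3).kill_neg (by norm_num) (by norm_num)
      (noBad_E6 _ (by decide)) (fun r hr hr2 h => ord_neg_odd' hr hr2 (by decide) h)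
      (fun r hr hr2 h => ord_neg_two' hr hr2 (by decide) h) (by norm_num)
  · exact (deadZ_2E6 F hq hF (by decide) (by decide) hasD_E6_12_3).kill_neg (by norm_num) (by norm_num)
      (noBad_E6 _ (by decide)) (fun r hr hr2 h => ord_neg_four' hr hr2 (by decide) h)
      (fun r hr hr2 h => ord_neg_two' hr hr2 (by decide) h) (by norm_num)

theorem two_2E6 (F : Type u) [Field F] [Fintype F] {q : ℕ} (hq : IsPrimePow q) (hF : Fintype.card F = q ^ 2)
    (h : q % 2 = 1) : ∀ f ∈ [4, 8, 10], KillTwo ↥(twistedE6 F q) q f := by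
  intro f hf
  have h2 := two_dvd_cyc (q := -(q : ℤ)) (by omega)
  simp only [List.mem_cons, List.not_mem_nil, or_false] at hf
  rcases hf with rfl | rfl | rfl
  · exact (deadZ_2E6 F hq hF (by decide) (by decide) hasD_E6_4_4).killTwo_neg (by norm_num) (noBad_E6 _ (by decide))
      (by norm_num) (h2 4 (by decide)) (fun r hr hr2 h => ord_neg_four' hr hr2 (by decide) h)
  · exact (deadZ_2E6 F hq hF (by decide) (by decide) hasD_E6_8_8).killTwo_neg (by norm_num) (noBad_E6 _ (by decide))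
      (by norm_num) (h2 8 (by decide)) (fun r hr hr2 h => ord_neg_four' hr hr2 (by decide) h)
  · exact (deadZ_2E6 F hq hF (by decide) (by decide) hasD_E6_5_2).killTwo_neg (by norm_num) (noBad_E6 _ (by decide))
      (by norm_num) (h2 2 (by decide)) (fun r hr hr2 h => ord_neg_two' hr hr2 (m := 5) (by decide) h)

end Cfsg.Agent.H755.PQ
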