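import Cfsg.Agent.H755.PQ.TorDualTw

/-!
# S4612: `²E₆(q)`, the pairs `(10, 2)`, `(4, 2)`, `(8, 2)` (helper755)

`IsTor.dvd_card_v` : a prime dividing the index `d` and the order of a torus, from commutators with the normaliser.
-/

set_option autoImplicit false
set_option linter.unusedSectionVars false
set_option linter.unusedVariables false
set_option maxRecDepth 100000

namespace Cfsg.Agent.H755.PQ

open CoxeterSystem Cfsg Cfsg.Lie Cfsg.Lie.ChevalleyDatum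
open Cfsg.Agent.ChevalleyStructure Cfsg.Agent.ChevalleyStructure.Elts Cfsg.Agent.ChevalleyStructure.CoxeterGeom
  Cfsg.Agent.ChevalleyStructure.CoxeterGeomTypes Cfsg.Agent.ChevalleyStructure.NPerm
open Cfsg.Agent.Tits.Roots Cfsg.Agent.Tits.Core Cfsg.Agent.Nodes Cfsg.Agent.Nodes.Reps Cfsg.Agent.Nodes.BNOf
  Cfsg.Agent.Nodes.RGDChev Cfsg.Agent.Nodes.Bruhat Cfsg.Agent.Nodes.SubComb Cfsg.Agent.Nodes.Coroot
open Cfsg.Agent.KFacts.RgdField Cfsg.Agent.KFacts.RgdChevCoord Cfsg.Agent.BpExc.TorCent Cfsg.Agent.BpExc.TorChev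
open Cfsg.Agent.GpExc.Field Cfsg.Agent.BpExc.Tow Cfsg.Agent.BpExc.TowChev Cfsg.Agent.BpExc.Fr
  Cfsg.Agent.BpExc.LangFr Cfsg.Agent.LangThm Cfsg.Agent.BpExc Cfsg.Agent.H129.TorusChar Cfsg.Agent.H129.TorusMain
open Cfsg.Agent.H129.TwE6Fr (tau isFrob_tau fr_tau embT embT_injective tau_embT tau_split tau_normal tau_pow flip6
  flip6_apply flip_sr')
open Cfsg.Agent.H630.NH Cfsg.Agent.H630.Exc Cfsg.Agent.H317.PQ Cfsg.Agent.H990.PQ
open Cfsg.Agent.H130.WeylCk Cfsg.Agent.H130.PolyL Cfsg.Agent.H130.WeylTab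

universe u v

section Gen

variable {D : ChevalleyDatum} {l : ℕ} {M : CoxeterMatrix (Fin l)} (hp : IsType D l M)
  {W : Type*} [Group W] (cs : CoxeterSystem M W)

variable {k : Type u} [Field k] {p e : ℕ} [hpF : Fact p.Prime] [CharP k p] {σ : MulAut ↥(D.group k)}
  {g : (Fin l → ℤ) ≃+ (Fin l → ℤ)}
  {X : Type v} [Group X] {e0 : X →* ↥(D.group k)} {d : ℕ} {S : Setup hp cs p e σ g e0 d}
  {ε : ℤ} {R : Module.End ℤ (Fin l → ℤ)} {T : Subgroup X}

/-- **A prime dividing the order of the torus**, also if it divides the index `d`: commutators with an element of the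
normaliser acting as `v`. -/
theorem IsTor.dvd_card_v (h : IsTor hp cs S ε R T) [IsAlgClosed k] [Finite W] [Finite X] (hcm : CommIn σ e0)
    (hε : ε = 1 ∨ ε = -1) {N : ℕ} (hN : 0 < N) (hR : R ^ N = 1) {s : ℕ} (hs : s.Prime) (hsp : s ≠ p) {Q : ℤ}
    (hQ : Q = ε * (p ^ e : ℕ)) (L : (Fin l → ℤ) →+ ℤ) (hL : ∀ x, (s : ℤ) ∣ L (R x) - Q * L x) (w' : W)
    (hv : ∀ x, rep cs hp.isCartan w' (R x) = R (rep cs hp.isCartan w' x)) (x0 : Fin l → ℤ)
    (hx0 : ¬ (s : ℤ) ∣ L (rep cs hp.isCartan w' x0) - L x0) : s ∣ Nat.card T := by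
  have : Fact s.Prime := ⟨hs⟩
  obtain ⟨w, n', z, hw, hn', hz, rfl⟩ := h
  have hpp : p.Prime := Fact.out
  have hsk : ((s : ℕ) : k) ≠ 0 := by
    rw [Ne, CharP.cast_eq_zero_iff k p]
    intro h
    exact hsp ((Nat.prime_dvd_prime_iff_eq hpp hs).1 h).symm
  have hθ : ∀ x, (theta hp cs w g)^[2 * N] x = x := theta_powR hp cs hε hw hR
  have hcw : ∀ x, rep cs hp.isCartan w' (theta hp cs w g x) = theta hp cs w g (rep cs hp.isCartan w' x) := by
    intro x
    rw [hw, hw, map_zsmul, hv]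
  obtain ⟨B, d', hd', hB⟩ := S.inv
  obtain ⟨ζ, hζ, hz0, hchar⟩ := exists_charL hp hB hd' (θ := theta hp cs w g) (q := p ^ e) hsk
  obtain ⟨t, ht, h1, h2, h3⟩ := hchar L (fun x => by
    have h3 : L (theta hp cs w g x) - ((p ^ e : ℕ) : ℤ) * L x = ε * (L (R x) - Q * L x) := by
      rw [hw, map_zsmul, smul_eq_mul, hQ]
      have h2 : ε * ε = 1 := by rcases hε with rfl | rfl <;> norm_num
      linear_combination (((p ^ e : ℕ) : ℤ) * L x) * h2
    rw [h3]
    exact (hL x).mul_left _)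
  have hFt := (tau_iff hp cs S.lf S.frob S.fr hn' ht).2 h1
  obtain ⟨y, hy, hFy⟩ := S.exists_norm hp cs (by omega) hθ hn' hcw
  obtain ⟨x, hx⟩ := hcm.exists_of hz hFy hFt
  have hyt : y * t * y⁻¹ ∈ TT D k := (Subgroup.mem_normalizer_iff.1 hy.mem_normalizer t).1 ht
  have hmem : z⁻¹ * e0 x * z ∈ TT D k := by rw [hx]; exact mul_mem hyt (inv_mem ht)
  have hxT : x ∈ tX D k e0 z := by rw [mem_tX]; exact hmem
  have hxs : x ^ s ^ 1 = 1 := by
    rw [pow_one]
    apply S.inj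
    rw [map_pow, map_one]
    have h4' : e0 x = z * (y * t * y⁻¹ * t⁻¹) * z⁻¹ := by rw [← hx]; group
    have h5 : (y * t * y⁻¹ * t⁻¹) ^ s = 1 := by
      rw [(show Commute (y * t * y⁻¹) t⁻¹ from TT_comm hp _ hyt _ (inv_mem ht)).mul_pow, conj_pow, h2, inv_pow, h2]
      group
    rw [h4', conj_pow, h5]
    group
  have hne : x ≠ 1 := by
    rintro rfl
    have h5 : cX hp (z⁻¹ * e0 1 * z) (rep cs hp.isCartan w' x0) = 1 := by
      rw [map_one, mul_one, inv_mul_cancel, cX_one]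
    rw [hx, cX_mul hp hyt (inv_mem ht)] at h5
    have h6 : cX hp (y * t * y⁻¹) (rep cs hp.isCartan w' x0) = cX hp t x0 := cX_rp hp cs S.lf p hy ht x0
    have h7 : cX hp t⁻¹ (rep cs hp.isCartan w' x0) = (cX hp t (rep cs hp.isCartan w' x0))⁻¹ := by
      have h8 := cX_mul hp ht (inv_mem ht) (rep cs hp.isCartan w' x0)
      rw [mul_inv_cancel, cX_one] at h8
      exact eq_inv_of_mul_eq_one_right h8.symm
    rw [h6, h7, h3, h3, ← zpow_neg, ← zpow_add₀ hz0] at h5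
    have h8 := (hζ.zpow_eq_one_iff_dvd _).1 h5
    apply hx0
    have h9 : L (rep cs hp.isCartan w' x0) - L x0 = -(L x0 + -L (rep cs hp.isCartan w' x0)) := by ring
    rw [h9, dvd_neg]
    exact h8
  have h5 : s ∣ orderOf x := by
    obtain ⟨j, hj, hjo⟩ := (Nat.dvd_prime_pow hs).1 (orderOf_dvd_of_pow_eq_one hxs)
    rcases Nat.eq_zero_or_pos j with rfl | hj0
    · rw [pow_zero, orderOf_eq_one_iff] at hjo
      exact absurd hjo hne
    · rw [hjo]
      exact dvd_pow_self s hj0.ne'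
  have h6 : orderOf (⟨x, hxT⟩ : tX D k e0 z) = orderOf x := by rw [← Subgroup.orderOf_coe]
  exact h5.trans (h6 ▸ orderOf_dvd_natCard _)

/-- the check for `dvd_card_v` -/
def CommCk (l : ℕ) (Al : List (List ℤ)) (word : List (Fin l)) (k N : ℕ) (word' : List (Fin l)) (s : ℤ)
    (Lf : List ℤ) (j0 : Fin l) : Prop :=
  Lf.length = l ∧ (∀ j : Fin l, acn Al word (k * N) (bas l j) = bas l j) ∧
  (∀ j : Fin l, s ∣ dot Lf (acn Al word k (bas l j)) - dot Lf (bas l j)) ∧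
  (∀ j : Fin l, acn Al word' 1 (acn Al word k (bas l j)) = acn Al word k (acn Al word' 1 (bas l j))) ∧
  ¬ s ∣ dot Lf (acn Al word' 1 (bas l j0)) - dot Lf (bas l j0)

instance decCommCk (l : ℕ) (Al : List (List ℤ)) (word : List (Fin l)) (k N : ℕ) (word' : List (Fin l)) (s : ℤ)
    (Lf : List ℤ) (j0 : Fin l) : Decidable (CommCk l Al word k N word' s Lf j0) := by
  unfold CommCk
  infer_instance

theorem IsTor.dvd_card_ck [IsAlgClosed k] [Finite W] [Finite X] (hcm : CommIn σ e0)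
    (hε : ε = 1 ∨ ε = -1) {Al : List (List ℤ)} (hA : MatList (cartanOf D l) Al) {word word' : List (Fin l)}
    {k' N : ℕ} (hN : 0 < N) {s : ℕ} {Lf : List ℤ} {j0 : Fin l} (H : CommCk l Al word k' N word' (s : ℤ) Lf j0)
    (h : IsTor hp cs S ε (rep cs hp.isCartan (cs.wordProd word ^ k')) T) (hs : s.Prime) (hsp : s ≠ p) {Q : ℤ}
    (hQ : Q = ε * (p ^ e : ℕ)) (hQs : (s : ℤ) ∣ Q - 1) : s ∣ Nat.card T := by
  obtain ⟨h1, h2, h3, h4, h5⟩ := H
  have hac : ∀ (u : List (Fin l)) (k : ℕ) (v : List ℤ), v.length = l →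
      toFn l (acn Al u k v) = rep cs hp.isCartan (cs.wordProd u ^ k) (toFn l v) := by
    intro u k v hv
    rw [toFn_acn cs hp.isCartan hA u _ _ hv, map_pow]
  refine IsTor.dvd_card_v hp cs h hcm hε hN (rep_pow_eq_one hp cs hA word k' N h2) hs hsp hQ
    (fn l Lf).toAddMonoidHom (fun x => ?_) (cs.wordProd word' ^ 1) (fun x => ?_) (toFn l (bas l j0)) (fun h6 => h5 ?_)
  · have h7 := dvd_of_basis ((fn l Lf).comp (rep cs hp.isCartan (cs.wordProd word ^ k')) - Q • fn l Lf) (m := s)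
      (fun i => by
        rw [LinearMap.sub_apply, LinearMap.comp_apply, LinearMap.smul_apply, smul_eq_mul, ← toFn_bas]
        have h8 := h3 i
        rw [dot_eq _ _ h1 (by rw [length_acn, length_bas]), dot_eq _ _ h1 (length_bas _),
          hac _ _ _ (length_bas _)] at h8
        have h9 : (s : ℤ) ∣ fn l Lf (rep cs hp.isCartan (cs.wordProd word ^ k') (toFn l (bas l i))) -
            fn l Lf (toFn l (bas l i)) := h8
        have h10 : fn l Lf (rep cs hp.isCartan (cs.wordProd word ^ k') (toFn l (bas l i))) -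
            Q * fn l Lf (toFn l (bas l i)) =
            (fn l Lf (rep cs hp.isCartan (cs.wordProd word ^ k') (toFn l (bas l i))) -
              fn l Lf (toFn l (bas l i))) - (Q - 1) * fn l Lf (toFn l (bas l i)) := by ring
        rw [h10]
        exact dvd_sub h9 (hQs.mul_right _)) x
    exact h7
  · have h7 : rep cs hp.isCartan (cs.wordProd word' ^ 1) * rep cs hp.isCartan (cs.wordProd word ^ k') =
        rep cs hp.isCartan (cs.wordProd word ^ k') * rep cs hp.isCartan (cs.wordProd word' ^ 1) := by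
      refine end_ext fun i => ?_
      rw [Module.End.mul_apply, Module.End.mul_apply, ← hac _ _ _ (length_bas _), ← hac _ _ _ (length_bas _),
        ← hac _ _ _ (by rw [length_acn, length_bas]), ← hac _ _ _ (by rw [length_acn, length_bas]), h4]
    exact congrArg (fun f : Module.End ℤ (Fin l → ℤ) => f x) h7
  · rw [dot_eq _ _ h1 (by rw [length_acn, length_bas]), dot_eq _ _ h1 (length_bas _), hac _ _ _ (length_bas _)]
    exact h6

end Gen

theorem commCk_5 : CommCk 6 alE6 ([3, 2, 4, 0] : List (Fin 6)) 1 5 [1, 3, 4, 5, 2, 3, 4, 1, 3, 2, 0, 2, 3, 1, 4, 3, 2, 5, 4, 3, 1] 3 [0, 1, 0, 0, 0, 0] 1 := by decide +kernel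

theorem commCk_4 : CommCk 6 alE6 ([3, 0, 1, 2, 4] : List (Fin 6)) 2 4 [0, 3, 1, 2, 4] 3 [0, -1, 0, 0, 1, 0] 1 := by decide +kernel

theorem dcert_E6_5 : DCert alE6 6 5 ([2, 5, 6, 8, 9, 12].filter (fun i => 5 ∣ i)).length ([3, 2, 4, 0] : List (Fin 6)) 1
    [[0, 1, 1, 1, 1, 0]] [[-1, 1, 0, 0, -1, 1]] := by
  decide +kernel

theorem dcert_E6_4 : DCert alE6 6 4 ([2, 5, 6, 8, 9, 12].filter (fun i => 4 ∣ i)).length ([3, 0, 1, 2, 4] : List (Fin 6)) 2
    [[0, 0, 1, 1, 1, 1], [0, 0, 0, 1, 1, 0]]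
    [[1, -1, 0, 1, -1, 0], [0, 0, 1, 0, 0, -1]] := by
  decide +kernel

/-- the prime `3`, dividing `q + 1` -/
theorem not_same_three_2E6 (F : Type u) [Field F] [Fintype F] {q : ℕ} (hq : IsPrimePow q)
    (hF : Fintype.card F = q ^ 2) {n : ℕ} (hn : 1 < n ∧ n ∈ H130.PolyL.idx) {word word' : List (Fin 6)} {k' N : ℕ}
    {xs ys : List (List ℤ)}
    (H : DCert alE6 6 n ([2, 5, 6, 8, 9, 12].filter (fun i => n ∣ i)).length word k' xs ys) (hN : 0 < N)
    {Lf : List ℤ} {j0 : Fin 6} (hck : CommCk 6 alE6 word k' N word' 3 Lf j0) (h3 : ord q 3 = 2) {r : ℕ}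
    (hr : r.Prime) (hr3 : r ≠ 3) (hrn : orderOf ((-(q : ℤ) : ℤ) : ZMod r) = n)
    (hgood : ∀ i ∈ [2, 5, 6, 8, 9, 12], n ∣ i → ¬ r ∣ i) : ¬ Same r 3 ↥(twistedE6 F q) := by
  obtain ⟨k, _, _, f, r', hpp, hkp, e', hk, hka, he0', hcF⟩ := H378.TorFin.exists_closure F
  obtain ⟨e, he0, hqe⟩ : ∃ e, 0 < e ∧ q = r' ^ e := by
    obtain ⟨r1, e, hr', he, rfl⟩ := hq
    have h1 : r1 ∣ r' ^ e' := by
      rw [← hcF, Nat.card_eq_fintype_card, hF]
      exact (dvd_pow_self r1 he.ne').trans (dvd_pow_self _ two_ne_zero)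
    have h2 : r1 = r' := (Nat.prime_dvd_prime_iff_eq hr'.nat_prime hpp.out).1 (hr'.nat_prime.dvd_of_dvd_pow h1)
    exact ⟨e, he, by rw [h2]⟩
  have cs := CoxeterMatrix.E₆.toCoxeterSystem
  have hW := finite_W e6T cs
  have S := setup_twE6 cs hk f he0 hqe hq hF
  have h1 : (-1 : ℤ) = 1 ∨ (-1 : ℤ) = -1 := Or.inr rfl
  have hQ : (-(q : ℤ)) = -1 * (r' ^ e : ℕ) := by rw [hqe]; ring
  have hpos : 0 < q := hq.pos
  have hcm : CommIn (tau k r' e) (embT f hq hF) := by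
    refine commIn_of (TT chevE6 k) (TT_comm e6T) S.fix (fun y hy => ?_) (fun y hy a ha => ?_)
    · obtain ⟨x, t, ht, -, e1⟩ := tau_split f hqe hq hF hy
      exact ⟨x, t, ht, e1⟩
    · exact tau_normal f hqe hq hF hy ha
  have hcard : Nat.gcd 3 (q + 1) * Nat.card ↥(twistedE6 F q) = (r' ^ e) ^ 36 *
      (([2, 5, 6, 8, 9, 12].map (fun i => (-(q : ℤ)) ^ i - 1)).prod).natAbs := by
    rw [S1066.result hq hF, ← hqe]
    have ev : ∀ i : ℕ, Even i → ((-(q : ℤ)) ^ i - 1).natAbs = q ^ i - 1 := by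
      intro i hi
      rw [hi.neg_pow]
      have h1 : 1 ≤ q ^ i := Nat.one_le_pow _ _ hpos
      have h2 : ((q : ℕ) : ℤ) ^ i - 1 = ((q ^ i - 1 : ℕ) : ℤ) := by push_cast [Nat.cast_sub h1]; ring
      rw [h2, Int.natAbs_natCast]
    have od : ∀ i : ℕ, Odd i → ((-(q : ℤ)) ^ i - 1).natAbs = q ^ i + 1 := by
      intro i hi
      rw [hi.neg_pow]
      have h2 : -((q : ℕ) : ℤ) ^ i - 1 = -((q ^ i + 1 : ℕ) : ℤ) := by push_cast; ring
      rw [h2, Int.natAbs_neg, Int.natAbs_natCast]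
    simp only [List.map_cons, List.map_nil, List.prod_cons, List.prod_nil, mul_one, Int.natAbs_mul]
    rw [ev 2 (by decide), od 5 (by decide), ev 6 (by decide), ev 8 (by decide), od 9 (by decide), ev 12 (by decide)]
    ring
  obtain ⟨T, hTor⟩ := exists_isTor e6T cs S (hasTor_tw cs (cs.wordProd word ^ k'))
  obtain ⟨x, y, hx, hy⟩ := dcert_data e6T cs lists_E6 hn.2 H
  have hQr := not_dvd_of_orderOf (by omega) hr hrn
  have h3' : orderOf ((-(q : ℤ) : ℤ) : ZMod 3) = 1 := ord_neg_two' Nat.prime_three (by norm_num) (by decide) h3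
  have hQ3 := not_dvd_of_orderOf (by norm_num) Nat.prime_three h3'
  have h3d : ((3 : ℕ) : ℤ) ∣ -(q : ℤ) - 1 := by
    have := (dvd_pow_sub_one_iff (r := 3) (Q := -(q : ℤ)) 1).2 (by rw [h3'])
    rwa [pow_one] at this
  have hrd : ¬ r ∣ Nat.gcd 3 (q + 1) := fun h =>
    hr3 ((Nat.prime_dvd_prime_iff_eq hr Nat.prime_three).1 (h.trans (Nat.gcd_dvd_left _ _)))
  have hfs := exists_prod hr hQr [2, 5, 6, 8, 9, 12] (by rw [hrn]; exact hgood)
  rw [hrn] at hfs
  have hi := IsTor.not_dvd_index_dual e6T cs hTor h1 hr (ne_char he0 hQ hQr) hrd hQ (by omega) x y 1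
    (fun h => by
      have : r ∣ 1 := by exact_mod_cast h
      exact hr.one_lt.ne' (Nat.dvd_one.1 this)) hx hy hcard hfs
  exact IsTor.not_same_good e6T cs hTor hr Nat.prime_three hr3 hi
    (IsTor.dvd_card_ck e6T cs hcm h1 lists_E6 hN hck hTor Nat.prime_three (ne_char he0 hQ hQ3) hQ h3d)

/-- **`²E₆`: the pairs `(10, 2)`, `(4, 2)`** -/
theorem pairs_2E6_two (F : Type u) [Field F] [Fintype F] {q : ℕ} (hq : IsPrimePow q) (hF : Fintype.card F = q ^ 2) :
    ∀ x ∈ [(10, 2), (4, 2)], Kill ↥(twistedE6 F q) q x.1 x.2 := by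
  intro x hx
  simp only [List.mem_cons, List.not_mem_nil, or_false] at hx
  have aux : ∀ {n : ℕ} {r : ℕ}, n ∈ [3, 4, 5, 6, 8, 9, 12] → r.Prime → r ≠ 2 →
      orderOf ((-(q : ℤ) : ℤ) : ZMod r) = n → ∀ i ∈ [2, 5, 6, 8, 9, 12], n ∣ i → ¬ r ∣ i := by
    intro n r hn hr hr2 h
    have hn0 : ∀ n ∈ [3, 4, 5, 6, 8, 9, 12], 0 < n := by decide
    have hQr := not_dvd_of_orderOf (hn0 n hn) hr h
    have hnr : n ∣ r - 1 := by rw [← h]; exact H630.Exc.ord_dvd hr hQr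
    exact (noBad_E6 n hn).not_dvd hr hr2 hnr
  rcases hx with rfl | rfl
  · have e10 : ∀ r : ℕ, r.Prime → r ≠ 2 → ord q r = 10 → orderOf ((-(q : ℤ) : ℤ) : ZMod r) = 5 :=
      fun r hr hr2 h => ord_neg_two' hr hr2 (m := 5) (by decide) h
    refine (deadZ_2E6 F hq hF (by decide) (by decide) hasD_E6_5_1).kill_neg (by norm_num) (by norm_num)
      (noBad_E6 _ (by decide)) e10 (fun r hr hr2 h => ord_neg_two' hr hr2 (m := 1) (by decide) h) ?_
    intro _ s hs3 hs hs2 r hr hr2 hrs h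
    obtain rfl : s = 3 := (Nat.prime_dvd_prime_iff_eq hs Nat.prime_three).1 hs3
    exact not_same_three_2E6 F hq hF (by decide) dcert_E6_5 (by norm_num) commCk_5 hs2 hr hrs (e10 r hr hr2 h)
      (aux (by decide) hr hr2 (e10 r hr hr2 h))
  · have e4 : ∀ r : ℕ, r.Prime → r ≠ 2 → ord q r = 4 → orderOf ((-(q : ℤ) : ℤ) : ZMod r) = 4 :=
      fun r hr hr2 h => ord_neg_four' hr hr2 (by decide) h
    refine (deadZ_2E6 F hq hF (by decide) (by decide) hasD_E6_4_1).kill_neg (by norm_num) (by norm_num)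
      (noBad_E6 _ (by decide)) e4 (fun r hr hr2 h => ord_neg_two' hr hr2 (m := 1) (by decide) h) ?_
    intro _ s hs3 hs hs2 r hr hr2 hrs h
    obtain rfl : s = 3 := (Nat.prime_dvd_prime_iff_eq hs Nat.prime_three).1 hs3
    exact not_same_three_2E6 F hq hF (by decide) dcert_E6_4 (by norm_num) commCk_4 hs2 hr hrs (e4 r hr hr2 h)
      (aux (by decide) hr hr2 (e4 r hr hr2 h))

/-- **`²E₆`: the orders `8`, `2`**, but for the prime `3` -/
theorem pairs_2E6_eight (F : Type u) [Field F] [Fintype F] {q : ℕ} (hq : IsPrimePow q) (hF : Fintype.card F = q ^ 2)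
    {r s : ℕ} (hr : r.Prime) (hs : s.Prime) (hr2 : r ≠ 2) (hs2 : s ≠ 2) (hs3 : s ≠ 3) (hrs : r ≠ s)
    (hre : ord q r = 8) (hse : ord q s = 2) : ¬ Same r s ↥(twistedE6 F q) := by
  have e8 := ord_neg_four' hr hr2 (by decide) hre
  have e2 := ord_neg_two' hs hs2 (m := 1) (by decide) hse
  have hQr := not_dvd_of_orderOf (by norm_num) hr e8
  have hQs := not_dvd_of_orderOf (by norm_num) hs e2
  have hnr : 8 ∣ r - 1 := by rw [← e8]; exact H630.Exc.ord_dvd hr hQr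
  refine deadZ_2E6 F hq hF (by decide) (by decide) hasD_E6_8_1 r s hr hs hrs
    ((noBad_E6 8 (by decide)).not_dvd hr hr2 hnr) (fun h => ?_) e8 (by rw [← e2]; exact dvd_cyclotomic hs hQs)
  exact hs3 ((Nat.prime_dvd_prime_iff_eq hs Nat.prime_three).1 h.1)

end Cfsg.Agent.H755.PQ
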