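import Cfsg.Agent.H755.PQ.TorDualP

/-!
# S4612: `³D₄(q)`, the orders `2`, `6` (helper755)

The torus `(q³ + 1)(q + 1)`.
-/

set_option autoImplicit false
set_option linter.unusedSectionVars false
set_option linter.unusedVariables false

namespace Cfsg.Agent.H755.PQ

open CoxeterSystem Cfsg Cfsg.Lie Cfsg.Lie.ChevalleyDatum
open Cfsg.Agent.ChevalleyStructure Cfsg.Agent.ChevalleyStructure.Elts Cfsg.Agent.ChevalleyStructure.CoxeterGeom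
  Cfsg.Agent.ChevalleyStructure.CoxeterGeomTypes Cfsg.Agent.ChevalleyStructure.NPerm
open Cfsg.Agent.Tits.Roots Cfsg.Agent.Tits.Core Cfsg.Agent.Nodes Cfsg.Agent.Nodes.Reps Cfsg.Agent.Nodes.BNOf
  Cfsg.Agent.Nodes.RGDChev Cfsg.Agent.Nodes.Bruhat Cfsg.Agent.Nodes.SubComb Cfsg.Agent.Nodes.Coroot
open Cfsg.Agent.KFacts.RgdField Cfsg.Agent.KFacts.RgdChevCoord Cfsg.Agent.BpExc.TorCent Cfsg.Agent.BpExc.TorChev
open Cfsg.Agent.GpExc.Field Cfsg.Agent.BpExc.Tow Cfsg.Agent.BpExc.TowChev Cfsg.Agent.BpExc.Fr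
  Cfsg.Agent.BpExc.LangFr Cfsg.Agent.LangThm Cfsg.Agent.BpExc Cfsg.Agent.H129.TorusChar Cfsg.Agent.H129.TorusMain
open Cfsg.Agent.H630.NH Cfsg.Agent.H630.Exc Cfsg.Agent.H317.PQ Cfsg.Agent.H990.PQ
open Cfsg.Agent.H130.WeylCk Cfsg.Agent.H130.PolyL Cfsg.Agent.H130.WeylTab

universe u v

open Cfsg.Agent.H129.TriD4 (tau isFrob_tau fr_tau embT embT_injective tau_embT tau_range tri tri_apply tri_sr
  tri_three) in
/-- **`³D₄`**: the orders `2` and `6`. -/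
theorem kill_3D4_26 (F : Type u) [Field F] [Fintype F] {q : ℕ} (hq : IsPrimePow q)
    (hF : Fintype.card F = q ^ 3) : Kill ↥(twistedD4 F q) q 2 6 := by
  obtain ⟨k, _, _, f, p, hpp, hkp, e', hk, hka, he0', hcF⟩ := H378.TorFin.exists_closure F
  obtain ⟨e, he0, hqe⟩ : ∃ e, 0 < e ∧ q = p ^ e := by
    obtain ⟨r', e, hr', he, rfl⟩ := hq
    have h1 : r' ∣ p ^ e' := by
      rw [← hcF, Nat.card_eq_fintype_card, hF]
      exact (dvd_pow_self r' he.ne').trans (dvd_pow_self _ three_ne_zero)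
    have h2 : r' = p := (Nat.prime_dvd_prime_iff_eq hr'.nat_prime hpp.out).1 (hr'.nat_prime.dvd_of_dvd_pow h1)
    exact ⟨e, he, by rw [h2]⟩
  have cs := coxeterD4.toCoxeterSystem
  have hW := finite_W RGDTwD4.hp cs
  have S := setup_twD4 cs hk f he0 hqe hq hF
  have hd : ∀ s : ℕ, s.Prime → ¬ s ∣ 1 := fun s hs h => hs.one_lt.ne' (Nat.dvd_one.1 h)
  have hε : (-1 : ℤ) = 1 ∨ (-1 : ℤ) = -1 := Or.inr rfl
  have hQ : -((p ^ e : ℕ) : ℤ) = -1 * (p ^ e : ℕ) := by ring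
  intro r s hr hs hr2 hs2 hrs _ _ hrn hsn
  have hrp := ne_of_ord he0 hqe r hr 2 (by norm_num) hrn
  have hsp := ne_of_ord he0 hqe s hs 6 (by norm_num) hsn
  rw [hqe] at hrn hsn
  have hc' : ∀ s : ℕ, ((-((p ^ e : ℕ) : ℤ) : ℤ) : ZMod s) = -((p ^ e : ℕ) : ZMod s) := fun s => by
    rw [Int.cast_neg, Int.cast_natCast]
  have hrQ : (r : ℤ) ∣ -((p ^ e : ℕ) : ℤ) - 1 := by
    have h3 := ord_neg_two hr hr2 (m := 1) odd_one hrn
    have h4 := (dvd_pow_sub_one_iff (r := r) (Q := -((p ^ e : ℕ) : ℤ)) 1).2 (by rw [hc', h3])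
    rwa [pow_one] at h4
  have hsQ : (s : ℤ) ∣ (-((p ^ e : ℕ) : ℤ)) ^ 3 - 1 := by
    have h3 := ord_neg_two hs hs2 (m := 3) (by decide) hsn
    exact (dvd_pow_sub_one_iff (r := s) (Q := -((p ^ e : ℕ) : ℤ)) 3).2 (by rw [hc', h3])
  obtain ⟨T, hTor⟩ := exists_isTorR RGDTwD4.hp cs S (R := triE) (ε := -1) (by
    obtain ⟨w, hw⟩ := has_R cs 1 hε
    rw [RR1] at hw
    exact ⟨w, hw⟩)
  refine IsTor.not_same_regT RGDTwD4.hp cs hTor hr hs hrs (hd r hr)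
    (fun w hw => regT_one cs hr hrp hr2 hε hQ hrQ hw) ?_
  obtain ⟨Q, hQd⟩ : ∃ Q, Q = -((p ^ e : ℕ) : ℤ) := ⟨_, rfl⟩
  rw [← hQd] at hsQ hQ
  refine IsTor.dvd_card_L RGDTwD4.hp cs hTor hs hsp (hd s hs) hε hQ
    (coordF 4 0 + (Q • coordF 4 2 + (Q ^ 2) • coordF 4 3)) (fun x => ?_) (x0 := Pi.single 0 1) ?_
  · have h5 : (coordF 4 0 + (Q • coordF 4 2 + (Q ^ 2) • coordF 4 3)) (triE x) = x 3 + (Q * x 0 + Q ^ 2 * x 2) := rfl
    have h6 : (coordF 4 0 + (Q • coordF 4 2 + (Q ^ 2) • coordF 4 3)) x = x 0 + (Q * x 2 + Q ^ 2 * x 3) := rfl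
    rw [h5, h6]
    have h7 : x 3 + (Q * x 0 + Q ^ 2 * x 2) - Q * (x 0 + (Q * x 2 + Q ^ 2 * x 3)) = (Q ^ 3 - 1) * (- x 3) := by ring
    rw [h7]
    exact hsQ.mul_right _
  · have h5 : (coordF 4 0 + (Q • coordF 4 2 + (Q ^ 2) • coordF 4 3)) (Pi.single 0 1) = 1 + (Q * 0 + Q ^ 2 * 0) := rfl
    rw [h5, mul_zero, mul_zero, add_zero, add_zero]
    intro h
    exact hd s hs (by exact_mod_cast h)

end Cfsg.Agent.H755.PQ
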